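import Mathlib
import Cfsg.Agent.Lib.Helper56.TC
import Cfsg.Agent.Lib.Helper56.Fi24V9.D
set_option autoImplicit false
set_option maxRecDepth 1000000

namespace Cfsg.Agent.Lib.Helper56.Fi24V9

open Cfsg.Agent.Lib.Helper56.TC Cfsg.Agent.Lib.Helper56.TC.Tabs

theorem cN_0 : allRange (fun x => forceN T.chkName x) 0 453 = true := by decide +kernel
theorem cN_453 : allRange (fun x => forceN T.chkName x) 453 457 = true := by decide +kernel
theorem cN_910 : allRange (fun x => forceN T.chkName x) 910 457 = true := by decide +kernel
theorem cN_1367 : allRange (fun x => forceN T.chkName x) 1367 459 = true := by decide +kernel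
theorem cN_1826 : allRange (fun x => forceN T.chkName x) 1826 459 = true := by decide +kernel
theorem cN_2285 : allRange (fun x => forceN T.chkName x) 2285 461 = true := by decide +kernel
theorem cN_2746 : allRange (fun x => forceN T.chkName x) 2746 460 = true := by decide +kernel
theorem cN_3206 : allRange (fun x => forceN T.chkName x) 3206 459 = true := by decide +kernel
theorem cN_3665 : allRange (fun x => forceN T.chkName x) 3665 463 = true := by decide +kernel
theorem cN_4128 : allRange (fun x => forceN T.chkName x) 4128 461 = true := by decide +kernel
theorem cN_4589 : allRange (fun x => forceN T.chkName x) 4589 463 = true := by decide +kernel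
theorem cN_5052 : allRange (fun x => forceN T.chkName x) 5052 459 = true := by decide +kernel

end Cfsg.Agent.Lib.Helper56.Fi24V9
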