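import Mathlib
import Cfsg.Agent.Lib.Helper56.TC
import Cfsg.Agent.Lib.Helper56.Fi24V9.D
set_option autoImplicit false
set_option maxRecDepth 1000000

namespace Cfsg.Agent.Lib.Helper56.Fi24V9

open Cfsg.Agent.Lib.Helper56.TC Cfsg.Agent.Lib.Helper56.TC.Tabs

theorem cN_5511 : allRange (fun x => forceN T.chkName x) 5511 466 = true := by decide +kernel
theorem cN_5977 : allRange (fun x => forceN T.chkName x) 5977 459 = true := by decide +kernel
theorem cN_6436 : allRange (fun x => forceN T.chkName x) 6436 463 = true := by decide +kernel
theorem cN_6899 : allRange (fun x => forceN T.chkName x) 6899 465 = true := by decide +kernel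
theorem cN_7364 : allRange (fun x => forceN T.chkName x) 7364 459 = true := by decide +kernel
theorem cN_7823 : allRange (fun x => forceN T.chkName x) 7823 461 = true := by decide +kernel
theorem cN_8284 : allRange (fun x => forceN T.chkName x) 8284 462 = true := by decide +kernel
theorem cN_8746 : allRange (fun x => forceN T.chkName x) 8746 461 = true := by decide +kernel
theorem cN_9207 : allRange (fun x => forceN T.chkName x) 9207 457 = true := by decide +kernel
theorem cN_9664 : allRange (fun x => forceN T.chkName x) 9664 464 = true := by decide +kernel
theorem cN_10128 : allRange (fun x => forceN T.chkName x) 10128 464 = true := by decide +kernel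
theorem cN_10592 : allRange (fun x => forceN T.chkName x) 10592 461 = true := by decide +kernel

end Cfsg.Agent.Lib.Helper56.Fi24V9
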