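import Mathlib
import Cfsg.Agent.Lib.Helper56.TC
import Cfsg.Agent.Lib.Helper56.Fi24V9.D
set_option autoImplicit false
set_option maxRecDepth 1000000

namespace Cfsg.Agent.Lib.Helper56.Fi24V9

open Cfsg.Agent.Lib.Helper56.TC Cfsg.Agent.Lib.Helper56.TC.Tabs

theorem cN_62382 : allRange (fun x => forceN T.chkName x) 62382 589 = true := by decide +kernel
theorem cN_62971 : allRange (fun x => forceN T.chkName x) 62971 583 = true := by decide +kernel
theorem cN_63554 : allRange (fun x => forceN T.chkName x) 63554 590 = true := by decide +kernel
theorem cN_64144 : allRange (fun x => forceN T.chkName x) 64144 583 = true := by decide +kernel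
theorem cN_64727 : allRange (fun x => forceN T.chkName x) 64727 574 = true := by decide +kernel
theorem cN_65301 : allRange (fun x => forceN T.chkName x) 65301 583 = true := by decide +kernel
theorem cN_65884 : allRange (fun x => forceN T.chkName x) 65884 594 = true := by decide +kernel
theorem cN_66478 : allRange (fun x => forceN T.chkName x) 66478 602 = true := by decide +kernel
theorem cN_67080 : allRange (fun x => forceN T.chkName x) 67080 593 = true := by decide +kernel
theorem cN_67673 : allRange (fun x => forceN T.chkName x) 67673 583 = true := by decide +kernel
theorem cN_68256 : allRange (fun x => forceN T.chkName x) 68256 600 = true := by decide +kernel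
theorem cN_68856 : allRange (fun x => forceN T.chkName x) 68856 585 = true := by decide +kernel

end Cfsg.Agent.Lib.Helper56.Fi24V9
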