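import Mathlib
import Cfsg.Agent.Lib.Helper56.TC
import Cfsg.Agent.Lib.Helper56.Fi24V9.D
set_option autoImplicit false
set_option maxRecDepth 1000000

namespace Cfsg.Agent.Lib.Helper56.Fi24V9

open Cfsg.Agent.Lib.Helper56.TC Cfsg.Agent.Lib.Helper56.TC.Tabs

theorem cN_69441 : allRange (fun x => forceN T.chkName x) 69441 596 = true := by decide +kernel
theorem cN_70037 : allRange (fun x => forceN T.chkName x) 70037 578 = true := by decide +kernel
theorem cN_70615 : allRange (fun x => forceN T.chkName x) 70615 586 = true := by decide +kernel
theorem cN_71201 : allRange (fun x => forceN T.chkName x) 71201 582 = true := by decide +kernel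
theorem cN_71783 : allRange (fun x => forceN T.chkName x) 71783 605 = true := by decide +kernel
theorem cN_72388 : allRange (fun x => forceN T.chkName x) 72388 592 = true := by decide +kernel
theorem cN_72980 : allRange (fun x => forceN T.chkName x) 72980 584 = true := by decide +kernel
theorem cN_73564 : allRange (fun x => forceN T.chkName x) 73564 602 = true := by decide +kernel
theorem cN_74166 : allRange (fun x => forceN T.chkName x) 74166 589 = true := by decide +kernel
theorem cN_74755 : allRange (fun x => forceN T.chkName x) 74755 593 = true := by decide +kernel
theorem cN_75348 : allRange (fun x => forceN T.chkName x) 75348 590 = true := by decide +kernel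
theorem cN_75938 : allRange (fun x => forceN T.chkName x) 75938 585 = true := by decide +kernel

end Cfsg.Agent.Lib.Helper56.Fi24V9
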