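import Mathlib
import Cfsg.Agent.Lib.Helper56.TC
import Cfsg.Agent.Lib.Helper56.Fi24V9.D
set_option autoImplicit false
set_option maxRecDepth 1000000

namespace Cfsg.Agent.Lib.Helper56.Fi24V9

open Cfsg.Agent.Lib.Helper56.TC Cfsg.Agent.Lib.Helper56.TC.Tabs

theorem cN_76523 : allRange (fun x => forceN T.chkName x) 76523 583 = true := by decide +kernel
theorem cN_77106 : allRange (fun x => forceN T.chkName x) 77106 594 = true := by decide +kernel
theorem cN_77700 : allRange (fun x => forceN T.chkName x) 77700 597 = true := by decide +kernel
theorem cN_78297 : allRange (fun x => forceN T.chkName x) 78297 594 = true := by decide +kernel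
theorem cN_78891 : allRange (fun x => forceN T.chkName x) 78891 602 = true := by decide +kernel
theorem cN_79493 : allRange (fun x => forceN T.chkName x) 79493 591 = true := by decide +kernel
theorem cN_80084 : allRange (fun x => forceN T.chkName x) 80084 597 = true := by decide +kernel
theorem cN_80681 : allRange (fun x => forceN T.chkName x) 80681 597 = true := by decide +kernel
theorem cN_81278 : allRange (fun x => forceN T.chkName x) 81278 593 = true := by decide +kernel
theorem cN_81871 : allRange (fun x => forceN T.chkName x) 81871 585 = true := by decide +kernel
theorem cN_82456 : allRange (fun x => forceN T.chkName x) 82456 590 = true := by decide +kernel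
theorem cN_83046 : allRange (fun x => forceN T.chkName x) 83046 601 = true := by decide +kernel

end Cfsg.Agent.Lib.Helper56.Fi24V9
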