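import Mathlib
import Cfsg.Agent.Lib.Helper56.TC
import Cfsg.Agent.Lib.Helper56.Fi24V9.D
set_option autoImplicit false
set_option maxRecDepth 1000000

namespace Cfsg.Agent.Lib.Helper56.Fi24V9

open Cfsg.Agent.Lib.Helper56.TC Cfsg.Agent.Lib.Helper56.TC.Tabs

theorem cN_83647 : allRange (fun x => forceN T.chkName x) 83647 601 = true := by decide +kernel
theorem cN_84248 : allRange (fun x => forceN T.chkName x) 84248 596 = true := by decide +kernel
theorem cN_84844 : allRange (fun x => forceN T.chkName x) 84844 592 = true := by decide +kernel
theorem cN_85436 : allRange (fun x => forceN T.chkName x) 85436 609 = true := by decide +kernel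
theorem cN_86045 : allRange (fun x => forceN T.chkName x) 86045 616 = true := by decide +kernel
theorem cN_86661 : allRange (fun x => forceN T.chkName x) 86661 614 = true := by decide +kernel
theorem cN_87275 : allRange (fun x => forceN T.chkName x) 87275 628 = true := by decide +kernel
theorem cN_87903 : allRange (fun x => forceN T.chkName x) 87903 630 = true := by decide +kernel
theorem cN_88533 : allRange (fun x => forceN T.chkName x) 88533 630 = true := by decide +kernel
theorem cN_89163 : allRange (fun x => forceN T.chkName x) 89163 156 = true := by decide +kernel
theorem cV_0 : allRange (fun x => forceN T.chkV x) 0 471 = true := by decide +kernel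
theorem cV_471 : allRange (fun x => forceN T.chkV x) 471 471 = true := by decide +kernel

end Cfsg.Agent.Lib.Helper56.Fi24V9
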