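import Mathlib
import Cfsg.Agent.Lib.Helper56.TC
import Cfsg.Agent.Lib.Helper56.Fi24V9.D
set_option autoImplicit false
set_option maxRecDepth 1000000

namespace Cfsg.Agent.Lib.Helper56.Fi24V9

open Cfsg.Agent.Lib.Helper56.TC Cfsg.Agent.Lib.Helper56.TC.Tabs

theorem cV_942 : allRange (fun x => forceN T.chkV x) 942 471 = true := by decide +kernel
theorem cV_1413 : allRange (fun x => forceN T.chkV x) 1413 471 = true := by decide +kernel
theorem cV_1884 : allRange (fun x => forceN T.chkV x) 1884 471 = true := by decide +kernel
theorem cV_2355 : allRange (fun x => forceN T.chkV x) 2355 471 = true := by decide +kernel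
theorem cV_2826 : allRange (fun x => forceN T.chkV x) 2826 471 = true := by decide +kernel
theorem cV_3297 : allRange (fun x => forceN T.chkV x) 3297 471 = true := by decide +kernel
theorem cV_3768 : allRange (fun x => forceN T.chkV x) 3768 471 = true := by decide +kernel
theorem cV_4239 : allRange (fun x => forceN T.chkV x) 4239 471 = true := by decide +kernel
theorem cV_4710 : allRange (fun x => forceN T.chkV x) 4710 471 = true := by decide +kernel
theorem cV_5181 : allRange (fun x => forceN T.chkV x) 5181 471 = true := by decide +kernel
theorem cV_5652 : allRange (fun x => forceN T.chkV x) 5652 471 = true := by decide +kernel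
theorem cV_6123 : allRange (fun x => forceN T.chkV x) 6123 471 = true := by decide +kernel

end Cfsg.Agent.Lib.Helper56.Fi24V9
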