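import Mathlib
import Cfsg.Agent.Lib.Helper56.TC
import Cfsg.Agent.Lib.Helper56.Fi24V9.D
set_option autoImplicit false
set_option maxRecDepth 1000000

namespace Cfsg.Agent.Lib.Helper56.Fi24V9

open Cfsg.Agent.Lib.Helper56.TC Cfsg.Agent.Lib.Helper56.TC.Tabs

theorem cV_6594 : allRange (fun x => forceN T.chkV x) 6594 471 = true := by decide +kernel
theorem cV_7065 : allRange (fun x => forceN T.chkV x) 7065 471 = true := by decide +kernel
theorem cV_7536 : allRange (fun x => forceN T.chkV x) 7536 471 = true := by decide +kernel
theorem cV_8007 : allRange (fun x => forceN T.chkV x) 8007 471 = true := by decide +kernel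
theorem cV_8478 : allRange (fun x => forceN T.chkV x) 8478 471 = true := by decide +kernel
theorem cV_8949 : allRange (fun x => forceN T.chkV x) 8949 471 = true := by decide +kernel
theorem cV_9420 : allRange (fun x => forceN T.chkV x) 9420 471 = true := by decide +kernel
theorem cV_9891 : allRange (fun x => forceN T.chkV x) 9891 471 = true := by decide +kernel
theorem cV_10362 : allRange (fun x => forceN T.chkV x) 10362 471 = true := by decide +kernel
theorem cV_10833 : allRange (fun x => forceN T.chkV x) 10833 471 = true := by decide +kernel
theorem cV_11304 : allRange (fun x => forceN T.chkV x) 11304 471 = true := by decide +kernel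
theorem cV_11775 : allRange (fun x => forceN T.chkV x) 11775 471 = true := by decide +kernel

end Cfsg.Agent.Lib.Helper56.Fi24V9
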