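import Mathlib
import Cfsg.Agent.Lib.Helper56.TC
import Cfsg.Agent.Lib.Helper56.Fi24V9.D
set_option autoImplicit false
set_option maxRecDepth 1000000

namespace Cfsg.Agent.Lib.Helper56.Fi24V9

open Cfsg.Agent.Lib.Helper56.TC Cfsg.Agent.Lib.Helper56.TC.Tabs

theorem cV_12246 : allRange (fun x => forceN T.chkV x) 12246 471 = true := by decide +kernel
theorem cV_12717 : allRange (fun x => forceN T.chkV x) 12717 471 = true := by decide +kernel
theorem cV_13188 : allRange (fun x => forceN T.chkV x) 13188 471 = true := by decide +kernel
theorem cV_13659 : allRange (fun x => forceN T.chkV x) 13659 471 = true := by decide +kernel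
theorem cV_14130 : allRange (fun x => forceN T.chkV x) 14130 471 = true := by decide +kernel
theorem cV_14601 : allRange (fun x => forceN T.chkV x) 14601 471 = true := by decide +kernel
theorem cV_15072 : allRange (fun x => forceN T.chkV x) 15072 471 = true := by decide +kernel
theorem cV_15543 : allRange (fun x => forceN T.chkV x) 15543 471 = true := by decide +kernel
theorem cV_16014 : allRange (fun x => forceN T.chkV x) 16014 471 = true := by decide +kernel
theorem cV_16485 : allRange (fun x => forceN T.chkV x) 16485 471 = true := by decide +kernel
theorem cV_16956 : allRange (fun x => forceN T.chkV x) 16956 471 = true := by decide +kernel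
theorem cV_17427 : allRange (fun x => forceN T.chkV x) 17427 471 = true := by decide +kernel

end Cfsg.Agent.Lib.Helper56.Fi24V9
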