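import Mathlib
import Cfsg.Agent.Lib.Helper56.TC
import Cfsg.Agent.Lib.Helper56.Fi24V9.D
set_option autoImplicit false
set_option maxRecDepth 1000000

namespace Cfsg.Agent.Lib.Helper56.Fi24V9

open Cfsg.Agent.Lib.Helper56.TC Cfsg.Agent.Lib.Helper56.TC.Tabs

theorem cV_17898 : allRange (fun x => forceN T.chkV x) 17898 471 = true := by decide +kernel
theorem cV_18369 : allRange (fun x => forceN T.chkV x) 18369 471 = true := by decide +kernel
theorem cV_18840 : allRange (fun x => forceN T.chkV x) 18840 471 = true := by decide +kernel
theorem cV_19311 : allRange (fun x => forceN T.chkV x) 19311 471 = true := by decide +kernel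
theorem cV_19782 : allRange (fun x => forceN T.chkV x) 19782 471 = true := by decide +kernel
theorem cV_20253 : allRange (fun x => forceN T.chkV x) 20253 471 = true := by decide +kernel
theorem cV_20724 : allRange (fun x => forceN T.chkV x) 20724 471 = true := by decide +kernel
theorem cV_21195 : allRange (fun x => forceN T.chkV x) 21195 471 = true := by decide +kernel
theorem cV_21666 : allRange (fun x => forceN T.chkV x) 21666 471 = true := by decide +kernel
theorem cV_22137 : allRange (fun x => forceN T.chkV x) 22137 471 = true := by decide +kernel
theorem cV_22608 : allRange (fun x => forceN T.chkV x) 22608 471 = true := by decide +kernel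
theorem cV_23079 : allRange (fun x => forceN T.chkV x) 23079 471 = true := by decide +kernel

end Cfsg.Agent.Lib.Helper56.Fi24V9
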