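import Mathlib
import Cfsg.Agent.Lib.Helper56.TC
import Cfsg.Agent.Lib.Helper56.Fi24V9.D
set_option autoImplicit false
set_option maxRecDepth 1000000

namespace Cfsg.Agent.Lib.Helper56.Fi24V9

open Cfsg.Agent.Lib.Helper56.TC Cfsg.Agent.Lib.Helper56.TC.Tabs

theorem cV_23550 : allRange (fun x => forceN T.chkV x) 23550 471 = true := by decide +kernel
theorem cV_24021 : allRange (fun x => forceN T.chkV x) 24021 471 = true := by decide +kernel
theorem cV_24492 : allRange (fun x => forceN T.chkV x) 24492 471 = true := by decide +kernel
theorem cV_24963 : allRange (fun x => forceN T.chkV x) 24963 471 = true := by decide +kernel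
theorem cV_25434 : allRange (fun x => forceN T.chkV x) 25434 471 = true := by decide +kernel
theorem cV_25905 : allRange (fun x => forceN T.chkV x) 25905 471 = true := by decide +kernel
theorem cV_26376 : allRange (fun x => forceN T.chkV x) 26376 471 = true := by decide +kernel
theorem cV_26847 : allRange (fun x => forceN T.chkV x) 26847 471 = true := by decide +kernel
theorem cV_27318 : allRange (fun x => forceN T.chkV x) 27318 471 = true := by decide +kernel
theorem cV_27789 : allRange (fun x => forceN T.chkV x) 27789 371 = true := by decide +kernel

end Cfsg.Agent.Lib.Helper56.Fi24V9
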