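import Mathlib
import Cfsg.Agent.Lib.Helper56.TC
import Cfsg.Agent.Lib.Helper56.Fi24V9.D
set_option autoImplicit false
set_option maxRecDepth 1000000

namespace Cfsg.Agent.Lib.Helper56.Fi24V9

open Cfsg.Agent.Lib.Helper56.TC Cfsg.Agent.Lib.Helper56.TC.Tabs

theorem cN_11053 : allRange (fun x => forceN T.chkName x) 11053 459 = true := by decide +kernel
theorem cN_11512 : allRange (fun x => forceN T.chkName x) 11512 458 = true := by decide +kernel
theorem cN_11970 : allRange (fun x => forceN T.chkName x) 11970 467 = true := by decide +kernel
theorem cN_12437 : allRange (fun x => forceN T.chkName x) 12437 464 = true := by decide +kernel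
theorem cN_12901 : allRange (fun x => forceN T.chkName x) 12901 463 = true := by decide +kernel
theorem cN_13364 : allRange (fun x => forceN T.chkName x) 13364 458 = true := by decide +kernel
theorem cN_13822 : allRange (fun x => forceN T.chkName x) 13822 472 = true := by decide +kernel
theorem cN_14294 : allRange (fun x => forceN T.chkName x) 14294 467 = true := by decide +kernel
theorem cN_14761 : allRange (fun x => forceN T.chkName x) 14761 465 = true := by decide +kernel
theorem cN_15226 : allRange (fun x => forceN T.chkName x) 15226 461 = true := by decide +kernel
theorem cN_15687 : allRange (fun x => forceN T.chkName x) 15687 470 = true := by decide +kernel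
theorem cN_16157 : allRange (fun x => forceN T.chkName x) 16157 471 = true := by decide +kernel

end Cfsg.Agent.Lib.Helper56.Fi24V9
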