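import Mathlib
import Cfsg.Agent.Lib.Helper56.TC
import Cfsg.Agent.Lib.Helper56.Fi24V9.D
set_option autoImplicit false
set_option maxRecDepth 1000000

namespace Cfsg.Agent.Lib.Helper56.Fi24V9

open Cfsg.Agent.Lib.Helper56.TC Cfsg.Agent.Lib.Helper56.TC.Tabs

theorem cN_16628 : allRange (fun x => forceN T.chkName x) 16628 465 = true := by decide +kernel
theorem cN_17093 : allRange (fun x => forceN T.chkName x) 17093 461 = true := by decide +kernel
theorem cN_17554 : allRange (fun x => forceN T.chkName x) 17554 474 = true := by decide +kernel
theorem cN_18028 : allRange (fun x => forceN T.chkName x) 18028 468 = true := by decide +kernel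
theorem cN_18496 : allRange (fun x => forceN T.chkName x) 18496 463 = true := by decide +kernel
theorem cN_18959 : allRange (fun x => forceN T.chkName x) 18959 470 = true := by decide +kernel
theorem cN_19429 : allRange (fun x => forceN T.chkName x) 19429 470 = true := by decide +kernel
theorem cN_19899 : allRange (fun x => forceN T.chkName x) 19899 462 = true := by decide +kernel
theorem cN_20361 : allRange (fun x => forceN T.chkName x) 20361 471 = true := by decide +kernel
theorem cN_20832 : allRange (fun x => forceN T.chkName x) 20832 468 = true := by decide +kernel
theorem cN_21300 : allRange (fun x => forceN T.chkName x) 21300 462 = true := by decide +kernel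
theorem cN_21762 : allRange (fun x => forceN T.chkName x) 21762 476 = true := by decide +kernel

end Cfsg.Agent.Lib.Helper56.Fi24V9
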