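import Mathlib
import Cfsg.Agent.Lib.Helper56.TC
import Cfsg.Agent.Lib.Helper56.Fi24V9.D
set_option autoImplicit false
set_option maxRecDepth 1000000

namespace Cfsg.Agent.Lib.Helper56.Fi24V9

open Cfsg.Agent.Lib.Helper56.TC Cfsg.Agent.Lib.Helper56.TC.Tabs

theorem cN_22238 : allRange (fun x => forceN T.chkName x) 22238 464 = true := by decide +kernel
theorem cN_22702 : allRange (fun x => forceN T.chkName x) 22702 474 = true := by decide +kernel
theorem cN_23176 : allRange (fun x => forceN T.chkName x) 23176 470 = true := by decide +kernel
theorem cN_23646 : allRange (fun x => forceN T.chkName x) 23646 465 = true := by decide +kernel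
theorem cN_24111 : allRange (fun x => forceN T.chkName x) 24111 480 = true := by decide +kernel
theorem cN_24591 : allRange (fun x => forceN T.chkName x) 24591 468 = true := by decide +kernel
theorem cN_25059 : allRange (fun x => forceN T.chkName x) 25059 478 = true := by decide +kernel
theorem cN_25537 : allRange (fun x => forceN T.chkName x) 25537 468 = true := by decide +kernel
theorem cN_26005 : allRange (fun x => forceN T.chkName x) 26005 464 = true := by decide +kernel
theorem cN_26469 : allRange (fun x => forceN T.chkName x) 26469 459 = true := by decide +kernel
theorem cN_26928 : allRange (fun x => forceN T.chkName x) 26928 464 = true := by decide +kernel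
theorem cN_27392 : allRange (fun x => forceN T.chkName x) 27392 467 = true := by decide +kernel

end Cfsg.Agent.Lib.Helper56.Fi24V9
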