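import Mathlib
import Cfsg.Agent.Lib.Helper56.TC
import Cfsg.Agent.Lib.Helper56.Fi24V9.D
set_option autoImplicit false
set_option maxRecDepth 1000000

namespace Cfsg.Agent.Lib.Helper56.Fi24V9

open Cfsg.Agent.Lib.Helper56.TC Cfsg.Agent.Lib.Helper56.TC.Tabs

theorem cN_27859 : allRange (fun x => forceN T.chkName x) 27859 483 = true := by decide +kernel
theorem cN_28342 : allRange (fun x => forceN T.chkName x) 28342 547 = true := by decide +kernel
theorem cN_28889 : allRange (fun x => forceN T.chkName x) 28889 552 = true := by decide +kernel
theorem cN_29441 : allRange (fun x => forceN T.chkName x) 29441 565 = true := by decide +kernel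
theorem cN_30006 : allRange (fun x => forceN T.chkName x) 30006 560 = true := by decide +kernel
theorem cN_30566 : allRange (fun x => forceN T.chkName x) 30566 562 = true := by decide +kernel
theorem cN_31128 : allRange (fun x => forceN T.chkName x) 31128 573 = true := by decide +kernel
theorem cN_31701 : allRange (fun x => forceN T.chkName x) 31701 565 = true := by decide +kernel
theorem cN_32266 : allRange (fun x => forceN T.chkName x) 32266 565 = true := by decide +kernel
theorem cN_32831 : allRange (fun x => forceN T.chkName x) 32831 590 = true := by decide +kernel
theorem cN_33421 : allRange (fun x => forceN T.chkName x) 33421 560 = true := by decide +kernel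
theorem cN_33981 : allRange (fun x => forceN T.chkName x) 33981 575 = true := by decide +kernel

end Cfsg.Agent.Lib.Helper56.Fi24V9
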