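import Mathlib
import Cfsg.Agent.Lib.Helper56.TC
import Cfsg.Agent.Lib.Helper56.Fi24V9.D
set_option autoImplicit false
set_option maxRecDepth 1000000

namespace Cfsg.Agent.Lib.Helper56.Fi24V9

open Cfsg.Agent.Lib.Helper56.TC Cfsg.Agent.Lib.Helper56.TC.Tabs

theorem cN_34556 : allRange (fun x => forceN T.chkName x) 34556 593 = true := by decide +kernel
theorem cN_35149 : allRange (fun x => forceN T.chkName x) 35149 568 = true := by decide +kernel
theorem cN_35717 : allRange (fun x => forceN T.chkName x) 35717 558 = true := by decide +kernel
theorem cN_36275 : allRange (fun x => forceN T.chkName x) 36275 587 = true := by decide +kernel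
theorem cN_36862 : allRange (fun x => forceN T.chkName x) 36862 591 = true := by decide +kernel
theorem cN_37453 : allRange (fun x => forceN T.chkName x) 37453 573 = true := by decide +kernel
theorem cN_38026 : allRange (fun x => forceN T.chkName x) 38026 566 = true := by decide +kernel
theorem cN_38592 : allRange (fun x => forceN T.chkName x) 38592 575 = true := by decide +kernel
theorem cN_39167 : allRange (fun x => forceN T.chkName x) 39167 592 = true := by decide +kernel
theorem cN_39759 : allRange (fun x => forceN T.chkName x) 39759 592 = true := by decide +kernel
theorem cN_40351 : allRange (fun x => forceN T.chkName x) 40351 578 = true := by decide +kernel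
theorem cN_40929 : allRange (fun x => forceN T.chkName x) 40929 574 = true := by decide +kernel

end Cfsg.Agent.Lib.Helper56.Fi24V9
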