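import Mathlib
import Cfsg.Agent.Lib.Helper56.TC
import Cfsg.Agent.Lib.Helper56.Fi24V9.D
set_option autoImplicit false
set_option maxRecDepth 1000000

namespace Cfsg.Agent.Lib.Helper56.Fi24V9

open Cfsg.Agent.Lib.Helper56.TC Cfsg.Agent.Lib.Helper56.TC.Tabs

theorem cN_41503 : allRange (fun x => forceN T.chkName x) 41503 564 = true := by decide +kernel
theorem cN_42067 : allRange (fun x => forceN T.chkName x) 42067 589 = true := by decide +kernel
theorem cN_42656 : allRange (fun x => forceN T.chkName x) 42656 591 = true := by decide +kernel
theorem cN_43247 : allRange (fun x => forceN T.chkName x) 43247 595 = true := by decide +kernel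
theorem cN_43842 : allRange (fun x => forceN T.chkName x) 43842 583 = true := by decide +kernel
theorem cN_44425 : allRange (fun x => forceN T.chkName x) 44425 572 = true := by decide +kernel
theorem cN_44997 : allRange (fun x => forceN T.chkName x) 44997 560 = true := by decide +kernel
theorem cN_45557 : allRange (fun x => forceN T.chkName x) 45557 569 = true := by decide +kernel
theorem cN_46126 : allRange (fun x => forceN T.chkName x) 46126 586 = true := by decide +kernel
theorem cN_46712 : allRange (fun x => forceN T.chkName x) 46712 592 = true := by decide +kernel
theorem cN_47304 : allRange (fun x => forceN T.chkName x) 47304 594 = true := by decide +kernel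
theorem cN_47898 : allRange (fun x => forceN T.chkName x) 47898 570 = true := by decide +kernel

end Cfsg.Agent.Lib.Helper56.Fi24V9
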