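import Mathlib
import Cfsg.Agent.Lib.Helper56.TC
import Cfsg.Agent.Lib.Helper56.Fi24V9.D
set_option autoImplicit false
set_option maxRecDepth 1000000

namespace Cfsg.Agent.Lib.Helper56.Fi24V9

open Cfsg.Agent.Lib.Helper56.TC Cfsg.Agent.Lib.Helper56.TC.Tabs

theorem cN_48468 : allRange (fun x => forceN T.chkName x) 48468 562 = true := by decide +kernel
theorem cN_49030 : allRange (fun x => forceN T.chkName x) 49030 567 = true := by decide +kernel
theorem cN_49597 : allRange (fun x => forceN T.chkName x) 49597 566 = true := by decide +kernel
theorem cN_50163 : allRange (fun x => forceN T.chkName x) 50163 575 = true := by decide +kernel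
theorem cN_50738 : allRange (fun x => forceN T.chkName x) 50738 599 = true := by decide +kernel
theorem cN_51337 : allRange (fun x => forceN T.chkName x) 51337 588 = true := by decide +kernel
theorem cN_51925 : allRange (fun x => forceN T.chkName x) 51925 577 = true := by decide +kernel
theorem cN_52502 : allRange (fun x => forceN T.chkName x) 52502 579 = true := by decide +kernel
theorem cN_53081 : allRange (fun x => forceN T.chkName x) 53081 572 = true := by decide +kernel
theorem cN_53653 : allRange (fun x => forceN T.chkName x) 53653 565 = true := by decide +kernel
theorem cN_54218 : allRange (fun x => forceN T.chkName x) 54218 572 = true := by decide +kernel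
theorem cN_54790 : allRange (fun x => forceN T.chkName x) 54790 574 = true := by decide +kernel

end Cfsg.Agent.Lib.Helper56.Fi24V9
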