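import Mathlib
import Cfsg.Agent.Lib.Helper56.TC
import Cfsg.Agent.Lib.Helper56.Fi24V9.D
set_option autoImplicit false
set_option maxRecDepth 1000000

namespace Cfsg.Agent.Lib.Helper56.Fi24V9

open Cfsg.Agent.Lib.Helper56.TC Cfsg.Agent.Lib.Helper56.TC.Tabs

theorem cN_55364 : allRange (fun x => forceN T.chkName x) 55364 597 = true := by decide +kernel
theorem cN_55961 : allRange (fun x => forceN T.chkName x) 55961 590 = true := by decide +kernel
theorem cN_56551 : allRange (fun x => forceN T.chkName x) 56551 581 = true := by decide +kernel
theorem cN_57132 : allRange (fun x => forceN T.chkName x) 57132 584 = true := by decide +kernel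
theorem cN_57716 : allRange (fun x => forceN T.chkName x) 57716 574 = true := by decide +kernel
theorem cN_58290 : allRange (fun x => forceN T.chkName x) 58290 586 = true := by decide +kernel
theorem cN_58876 : allRange (fun x => forceN T.chkName x) 58876 567 = true := by decide +kernel
theorem cN_59443 : allRange (fun x => forceN T.chkName x) 59443 581 = true := by decide +kernel
theorem cN_60024 : allRange (fun x => forceN T.chkName x) 60024 579 = true := by decide +kernel
theorem cN_60603 : allRange (fun x => forceN T.chkName x) 60603 600 = true := by decide +kernel
theorem cN_61203 : allRange (fun x => forceN T.chkName x) 61203 592 = true := by decide +kernel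
theorem cN_61795 : allRange (fun x => forceN T.chkName x) 61795 587 = true := by decide +kernel

end Cfsg.Agent.Lib.Helper56.Fi24V9
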